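import Cfsg.Agent.Lib.Spor.LU43.Main
import Cfsg.Agent.Lib.Spor.Glue3

set_option autoImplicit false
set_option maxRecDepth 100000
set_option Elab.async false
set_option exponentiation.threshold 100000

namespace Cfsg.Agent.Spor.LU43
open Cfsg.Agent.PG Cfsg.Agent.Spor

def fx_lv : List (ℕ × List (List ℕ) × ℕ × ℕ) := [(0, [[0x02383434303632362c302c282e28], [0x023a3430343234302e3236]], 7, 112),
  (1, [[0x0238323630362c302c282c282e303a28], [0x0236323434302e282c282c32363a]], 7, 81),
  (2, [[0x023834343234322c2c322e282e2832], [0x02343432362c322c34282c282c323630]], 5, 30),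
  (4, [[0x023a3434303632282c28303a], [0x02383432362c2c32282c]], 4, 12)]

theorem fx_ok : lbB LU43.A 6 10 fx_lv [] = true := by decide +kernel

theorem fx : FixTriv (K LU43.A 10) (bset (ivl 0 112)) := by
  have := lb_fixTriv LU43.hA fx_ok (by rw [KS_nil, LU43.card0]; decide +kernel) (B := bset (ivl 0 112))
    (fun q hq => mem_bset_of_bit (allL_spec (p := fun q => bit (ivl 0 112) q.1) (by decide +kernel) q hq))
  rwa [KS_nil] at this


end Cfsg.Agent.Spor.LU43
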